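import Mathlib

/-!
# S4284 (class sizes `{1, m, mn}`, `gcd(m,n) = 1`): top-level interface of team project CS3

`final_of` reduces the frozen statement to three packages:
* `PkgGood`: a good element exists  ⟹ normal abelian Hall `π(n)`-subgroup (`HasQ`);
* `PkgNG`:   no good element        ⟹ `HasQ`;
* `PkgEnd`:  `HasQ`                 ⟹ the conclusion.
-/

set_option autoImplicit false

namespace Cfsg.Agent.Lib.Helper81.CS3

universe u

/-- The hypotheses of S4284 (in the order of the frozen statement). -/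
def Hyp (G : Type u) [Group G] (m n : ℕ) : Prop :=
  (∀ A B : Subgroup G, A.Normal → B.Normal → A ⊓ B = ⊥ → A ⊔ B = ⊤ → IsMulCommutative A → A = ⊥) ∧
  1 < m ∧ 1 < n ∧ m.Coprime n ∧
  Set.range (fun x : G => (Subgroup.centralizer ({x} : Set G)).index) = ({1, m, m * n} : Set ℕ)

/-- A *good* element: class size exactly `m` and order a power of a prime divisor of `m`. -/
def IsGood {G : Type u} [Group G] (m : ℕ) (x : G) : Prop :=
  (Subgroup.centralizer ({x} : Set G)).index = m ∧
    ∃ s k : ℕ, s.Prime ∧ s ∣ m ∧ orderOf x = s ^ k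

/-- `G` has a normal abelian Hall `π(n)`-subgroup. -/
def HasQ (G : Type u) [Group G] (m n : ℕ) : Prop :=
  ∃ Q : Subgroup G, Q.Normal ∧ IsMulCommutative Q ∧ (Nat.card Q).Coprime m ∧ Q.index.Coprime n

/-- The conclusion of S4284. -/
def Concl (G : Type u) [Group G] (m n : ℕ) : Prop :=
  m.Prime ∧ m ∣ n - 1 ∧ (∃ M : Subgroup G, M.Normal ∧ (M : Set G) = {x : G | (Subgroup.centralizer ({x} : Set G)).index = 1 ∨ (Subgroup.centralizer ({x} : Set G)).index = m} ∧ M.index = m ∧ IsMulCommutative M) ∧ (∃ N : Subgroup G, N.Normal ∧ (Nat.card N).Coprime m ∧ ∃ a : ℕ, N.index = m ^ a) ∧ ∀ P : Sylow m G, Nat.card (commutator (P : Subgroup G)) = m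

/-- ENDGAME: a normal abelian Hall `π(n)`-subgroup gives the conclusion. -/
def PkgEnd : Prop :=
  ∀ {G : Type u} [Group G] [Finite G] (m n : ℕ), Hyp G m n → HasQ G m n → Concl G m n

/-- GOOD: if a good element exists there is a normal abelian Hall `π(n)`-subgroup. -/
def PkgGood : Prop :=
  ∀ {G : Type u} [Group G] [Finite G] (m n : ℕ), Hyp G m n → (∃ x : G, IsGood m x) → HasQ G m n

/-- NG: if no good element exists there is a normal abelian Hall `π(n)`-subgroup. -/
def PkgNG : Prop :=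
  ∀ {G : Type u} [Group G] [Finite G] (m n : ℕ), Hyp G m n → (¬ ∃ x : G, IsGood m x) → HasQ G m n

theorem final_of (hE : PkgEnd.{u}) (hG : PkgGood.{u}) (hN : PkgNG.{u})
    {G : Type u} [Group G] [Finite G] (hnodf : ∀ A B : Subgroup G, A.Normal → B.Normal → A ⊓ B = ⊥ → A ⊔ B = ⊤ → IsMulCommutative A → A = ⊥) (m n : ℕ) (hm : 1 < m) (hn : 1 < n) (hcop : m.Coprime n) (h : Set.range (fun x : G => (Subgroup.centralizer ({x} : Set G)).index) = ({1, m, m * n} : Set ℕ)) : m.Prime ∧ m ∣ n - 1 ∧ (∃ M : Subgroup G, M.Normal ∧ (M : Set G) = {x : G | (Subgroup.centralizer ({x} : Set G)).index = 1 ∨ (Subgroup.centralizer ({x} : Set G)).index = m} ∧ M.index = m ∧ IsMulCommutative M) ∧ (∃ N : Subgroup G, N.Normal ∧ (Nat.card N).Coprime m ∧ ∃ a : ℕ, N.index = m ^ a) ∧ ∀ P : Sylow m G, Nat.card (commutator (P : Subgroup G)) = m := by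
  have hyp : Hyp G m n := ⟨hnodf, hm, hn, hcop, h⟩
  by_cases hg : ∃ x : G, IsGood m x
  · exact hE m n hyp (hG m n hyp hg)
  · exact hE m n hyp (hN m n hyp hg)

end Cfsg.Agent.Lib.Helper81.CS3
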