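import Cfsg.Agent.Lib.Helper81.CS3.Defs

/-!
# CS3 (S4284), part NG ("no good element"): package interface and assembly `pkgNG_of`.
-/

set_option autoImplicit false

namespace Cfsg.Agent.Lib.Helper81.CS3

universe u

/-- class index `i(x) = |G : C_G(x)|`. -/
noncomputable abbrev idx {G : Type u} [Group G] (x : G) : ℕ := (Subgroup.centralizer ({x} : Set G)).index

/-- no good element. -/
def NG (G : Type u) [Group G] (m : ℕ) : Prop := ¬ ∃ x : G, IsGood m x

/-- `b` is a non-central `s`-element, `s` a prime divisor of `m`. -/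
def PM {G : Type u} [Group G] (m s : ℕ) (b : G) : Prop :=
  s.Prime ∧ s ∣ m ∧ (∃ k : ℕ, orderOf b = s ^ k) ∧ b ∉ Subgroup.center G

/-- type (ii): no `s'`-element of `C(b)` has class size `mn`. -/
def TypeII {G : Type u} [Group G] (m n s : ℕ) (b : G) : Prop :=
  ∀ u : G, Commute u b → (orderOf u).Coprime s → idx u ≠ m * n

/-- `C(w)` is abelian. -/
def AbC {G : Type u} [Group G] (w : G) : Prop :=
  ∀ x y : G, Commute x w → Commute y w → Commute x y

/-- [F4] `w` an `r`-element of class size `mn`, `y ∈ C(w)` an `r'`-element: `C(w) ≤ C(y)`. -/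
def PkgF4 : Prop := ∀ {G : Type u} [Group G] [Finite G] (m n : ℕ), Hyp G m n →
  ∀ (r : ℕ) (w y : G), r.Prime → (∃ k : ℕ, orderOf w = r ^ k) → idx w = m * n →
    Commute w y → (orderOf y).Coprime r → ∀ g : G, Commute g w → Commute g y

/-- [SYL] every centralizer contains a non-central `s`-element (`s` prime, `s ∣ m`). -/
def PkgSyl : Prop := ∀ {G : Type u} [Group G] [Finite G] (m n : ℕ), Hyp G m n →
  ∀ (s : ℕ), s.Prime → s ∣ m → ∀ x : G, ∃ b : G, PM m s b ∧ Commute b x

/-- [MELT] there is an `r`-element of class size `m` with `r` a prime not dividing `m`. -/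
def PkgMelt : Prop := ∀ {G : Type u} [Group G] [Finite G] (m n : ℕ), Hyp G m n → NG G m →
  ∃ (x : G) (r k : ℕ), r.Prime ∧ ¬ r ∣ m ∧ orderOf x = r ^ k ∧ idx x = m

/-- [STR] structure of `C(b)`, `b` a non-central `s`-element, `s ∣ m`:
`C(b) = S_b × A_b`, `S_b` = its `s`-elements, `A_b` = its `s'`-elements, central in `C(b)`. -/
def PkgStr : Prop := ∀ {G : Type u} [Group G] [Finite G] (m n : ℕ), Hyp G m n → NG G m →
  ∀ (s : ℕ) (b : G), PM m s b →
    idx b = m * n ∧
    ∃ Sb Ab : Subgroup G,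
      (∀ u : G, u ∈ Sb ↔ (Commute u b ∧ ∃ k : ℕ, orderOf u = s ^ k)) ∧
      (∀ u : G, u ∈ Ab ↔ (Commute u b ∧ (orderOf u).Coprime s)) ∧
      (∀ u ∈ Ab, ∀ g : G, Commute g b → Commute g u) ∧
      Nat.card Sb * Nat.card Ab * (m * n) = Nat.card G ∧
      (∃ j : ℕ, Nat.card Sb = s ^ j) ∧ (Nat.card Ab).Coprime s

/-- [NC] `A_b` is not central. -/
def PkgNC : Prop := ∀ {G : Type u} [Group G] [Finite G] (m n : ℕ), Hyp G m n → NG G m →
  ∀ (s : ℕ) (b : G), PM m s b →
    ∃ u : G, Commute u b ∧ (orderOf u).Coprime s ∧ u ∉ Subgroup.center G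

/-- [SQ] `m` is squarefree. -/
def PkgSq : Prop := ∀ {G : Type u} [Group G] [Finite G] (m n : ℕ), Hyp G m n → NG G m →
  ∀ (s : ℕ), s.Prime → s ∣ m → ¬ s ^ 2 ∣ m

/-- [AB] type (i) ⟹ `C(b)` abelian. -/
def PkgAb : Prop := ∀ {G : Type u} [Group G] [Finite G] (m n : ℕ), Hyp G m n → NG G m →
  ∀ (s : ℕ) (b : G), PM m s b → ¬ TypeII m n s b → AbC b

/-- [NOR] `m` prime, `b` of type (ii) ⟹ `A_b` is closed under `G`-conjugation. -/
def PkgNor : Prop := ∀ {G : Type u} [Group G] [Finite G] (m n : ℕ), Hyp G m n → NG G m →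
  m.Prime → ∀ b : G, PM m m b → TypeII m n m b →
    ∀ u g : G, Commute u b → (orderOf u).Coprime m → Commute (g * u * g⁻¹) b

/-- [STEPA] an abelian centralizer of class size `mn` contains a primary element of class size `m`. -/
def PkgStepA : Prop := ∀ {G : Type u} [Group G] [Finite G] (m n : ℕ), Hyp G m n → NG G m →
  ∀ w : G, idx w = m * n → AbC w →
    ∃ (x : G) (r k : ℕ), r.Prime ∧ ¬ r ∣ m ∧ orderOf x = r ^ k ∧ Commute x w ∧ idx x = m

/-- [STEPB] if `C(w)` is abelian of index `mn` and `x ∈ C(w)` has class size `m`, the whole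
class of `x` lies in `C(w)`. -/
def PkgStepB : Prop := ∀ {G : Type u} [Group G] [Finite G] (m n : ℕ), Hyp G m n → NG G m →
  ∀ w : G, idx w = m * n → AbC w →
    ∀ x g : G, Commute x w → idx x = m → Commute (g * x * g⁻¹) w

/-- [TWO] `m` has at most one prime divisor. -/
def PkgTwo : Prop := ∀ {G : Type u} [Group G] [Finite G] (m n : ℕ), Hyp G m n → NG G m →
  ∀ s r : ℕ, s.Prime → r.Prime → s ≠ r → s ∣ m → r ∣ m → False

/-- [II] `m` prime, all non-central `m`-elements of type (ii) ⟹ `HasQ`. -/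
def PkgII : Prop := ∀ {G : Type u} [Group G] [Finite G] (m n : ℕ), Hyp G m n → NG G m →
  m.Prime → (∀ b : G, PM m m b → TypeII m n m b) → HasQ G m n

/-- [MIX] `m` prime: type (i) and type (ii) elements cannot coexist. -/
def PkgMix : Prop := ∀ {G : Type u} [Group G] [Finite G] (m n : ℕ), Hyp G m n → NG G m →
  m.Prime → ∀ b1 b2 : G, PM m m b1 → ¬ TypeII m n m b1 → PM m m b2 → TypeII m n m b2 → False

/-- [I] `m` prime, all non-central `m`-elements of type (i): impossible. -/
def PkgI : Prop := ∀ {G : Type u} [Group G] [Finite G] (m n : ℕ), Hyp G m n → NG G m →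
  m.Prime → (∀ b : G, PM m m b → ¬ TypeII m n m b) → False

theorem pkgNG_of (hSq : PkgSq.{u}) (hTwo : PkgTwo.{u}) (hII : PkgII.{u}) (hMix : PkgMix.{u})
    (hI : PkgI.{u}) : PkgNG.{u} := by
  intro G _ _ m n hyp hng
  have hNG : NG G m := hng
  have hm1 : 1 < m := hyp.2.1
  obtain ⟨s, hs, hsm⟩ := Nat.exists_prime_and_dvd (by omega : m ≠ 1)
  have h1 : ∀ {r : ℕ}, r.Prime → r ∣ m → r = s := by
    intro r hr hrm
    by_contra hne
    exact hTwo m n hyp hNG s r hs hr (Ne.symm hne) hsm hrm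
  have hpow := Nat.eq_prime_pow_of_unique_prime_dvd (by omega : m ≠ 0) h1
  have hmp : m.Prime := by
    set k := m.primeFactorsList.length with hk
    rcases Nat.lt_or_ge k 2 with hlt | hge
    · interval_cases k
      · simp at hpow; omega
      · simpa [hpow] using hs
    · exfalso
      apply hSq m n hyp hNG s hs hsm
      rw [hpow]
      exact pow_dvd_pow s hge
  by_cases hall : ∀ b : G, PM m m b → TypeII m n m b
  · exact hII m n hyp hNG hmp hall
  · exfalso
    push Not at hall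
    obtain ⟨b1, hb1, hb1'⟩ := hall
    by_cases hex : ∃ b2 : G, PM m m b2 ∧ TypeII m n m b2
    · obtain ⟨b2, hb2, hb2'⟩ := hex
      exact hMix m n hyp hNG hmp b1 b2 hb1 hb1' hb2 hb2'
    · push Not at hex
      exact hI m n hyp hNG hmp hex

end Cfsg.Agent.Lib.Helper81.CS3
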